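import Mathlib
import Cfsg.Agent.Lib.Helper56.TC
import Cfsg.Agent.Lib.Helper28.G23Mult.L0.D
set_option autoImplicit false
set_option maxRecDepth 1000000

namespace Cfsg.Agent.Lib.Helper28.G23Mult.L0

open Cfsg.Agent.Lib.Helper56.TC Cfsg.Agent.Lib.Helper56.TC.Tabs
open Cfsg.Agent.Lib.Helper28.CovL

theorem cN_0 : allRange (fun x => forceN T.chkName x) 0 1093 = true := by decide +kernel
theorem cN_1093 : allRange (fun x => forceN T.chkName x) 1093 1092 = true := by decide +kernel
theorem cN_2185 : allRange (fun x => forceN T.chkName x) 2185 1120 = true := by decide +kernel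
theorem cN_3305 : allRange (fun x => forceN T.chkName x) 3305 1149 = true := by decide +kernel
theorem cN_4454 : allRange (fun x => forceN T.chkName x) 4454 1165 = true := by decide +kernel
theorem cN_5619 : allRange (fun x => forceN T.chkName x) 5619 1132 = true := by decide +kernel
theorem cN_6751 : allRange (fun x => forceN T.chkName x) 6751 1176 = true := by decide +kernel
theorem cN_7927 : allRange (fun x => forceN T.chkName x) 7927 1168 = true := by decide +kernel
theorem cN_9095 : allRange (fun x => forceN T.chkName x) 9095 1174 = true := by decide +kernel
theorem cN_10269 : allRange (fun x => forceN T.chkName x) 10269 1137 = true := by decide +kernel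
theorem cN_11406 : allRange (fun x => forceN T.chkName x) 11406 1082 = true := by decide +kernel
theorem cN_12488 : allRange (fun x => forceN T.chkName x) 12488 1093 = true := by decide +kernel

end Cfsg.Agent.Lib.Helper28.G23Mult.L0
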