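import Mathlib
import Cfsg.Agent.Lib.Helper56.TC
import Cfsg.Agent.Lib.Helper28.G23Mult.L0.D
set_option autoImplicit false
set_option maxRecDepth 1000000

namespace Cfsg.Agent.Lib.Helper28.G23Mult.L0

open Cfsg.Agent.Lib.Helper56.TC Cfsg.Agent.Lib.Helper56.TC.Tabs
open Cfsg.Agent.Lib.Helper28.CovL

theorem cN_13581 : allRange (fun x => forceN T.chkName x) 13581 1134 = true := by decide +kernel
theorem cN_14715 : allRange (fun x => forceN T.chkName x) 14715 1072 = true := by decide +kernel
theorem cN_15787 : allRange (fun x => forceN T.chkName x) 15787 1135 = true := by decide +kernel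
theorem cN_16922 : allRange (fun x => forceN T.chkName x) 16922 1127 = true := by decide +kernel
theorem cN_18049 : allRange (fun x => forceN T.chkName x) 18049 1146 = true := by decide +kernel
theorem cN_19195 : allRange (fun x => forceN T.chkName x) 19195 1112 = true := by decide +kernel
theorem cN_20307 : allRange (fun x => forceN T.chkName x) 20307 1011 = true := by decide +kernel
theorem cN_21318 : allRange (fun x => forceN T.chkName x) 21318 834 = true := by decide +kernel
theorem cN_22152 : allRange (fun x => forceN T.chkName x) 22152 783 = true := by decide +kernel
theorem cN_22935 : allRange (fun x => forceN T.chkName x) 22935 704 = true := by decide +kernel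
theorem cN_23639 : allRange (fun x => forceN T.chkName x) 23639 315 = true := by decide +kernel
theorem cF_0 : allRange (fun x => forceN T.chkFinName x) 0 476 = true := by decide +kernel

end Cfsg.Agent.Lib.Helper28.G23Mult.L0
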