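import Mathlib
import Cfsg.Agent.Lib.Helper56.TC
import Cfsg.Agent.Lib.Helper28.G23Mult.L0.D
set_option autoImplicit false
set_option maxRecDepth 1000000

namespace Cfsg.Agent.Lib.Helper28.G23Mult.L0

open Cfsg.Agent.Lib.Helper56.TC Cfsg.Agent.Lib.Helper56.TC.Tabs
open Cfsg.Agent.Lib.Helper28.CovL

theorem cF_476 : allRange (fun x => forceN T.chkFinName x) 476 476 = true := by decide +kernel
theorem cF_952 : allRange (fun x => forceN T.chkFinName x) 952 476 = true := by decide +kernel
theorem cF_1428 : allRange (fun x => forceN T.chkFinName x) 1428 476 = true := by decide +kernel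
theorem cF_1904 : allRange (fun x => forceN T.chkFinName x) 1904 202 = true := by decide +kernel

end Cfsg.Agent.Lib.Helper28.G23Mult.L0
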