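import Mathlib
import Cfsg.Agent.Lib.Helper56.TC
import Cfsg.Agent.Lib.Helper28.G23Mult.L0.C0
import Cfsg.Agent.Lib.Helper28.G23Mult.L0.C1
import Cfsg.Agent.Lib.Helper28.G23Mult.L0.C2
set_option autoImplicit false
set_option maxRecDepth 1000000

namespace Cfsg.Agent.Lib.Helper28.G23Mult.L0

open Cfsg.Agent.Lib.Helper56.TC Cfsg.Agent.Lib.Helper56.TC.Tabs
open Cfsg.Agent.Lib.Helper28.CovL

theorem uN_1093 : Upto T.chkName 1093 := upto_add (upto_zero T.chkName) rfl cN_0
theorem uN_2185 : Upto T.chkName 2185 := upto_add uN_1093 rfl cN_1093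
theorem uN_3305 : Upto T.chkName 3305 := upto_add uN_2185 rfl cN_2185
theorem uN_4454 : Upto T.chkName 4454 := upto_add uN_3305 rfl cN_3305
theorem uN_5619 : Upto T.chkName 5619 := upto_add uN_4454 rfl cN_4454
theorem uN_6751 : Upto T.chkName 6751 := upto_add uN_5619 rfl cN_5619
theorem uN_7927 : Upto T.chkName 7927 := upto_add uN_6751 rfl cN_6751
theorem uN_9095 : Upto T.chkName 9095 := upto_add uN_7927 rfl cN_7927
theorem uN_10269 : Upto T.chkName 10269 := upto_add uN_9095 rfl cN_9095
theorem uN_11406 : Upto T.chkName 11406 := upto_add uN_10269 rfl cN_10269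
theorem uN_12488 : Upto T.chkName 12488 := upto_add uN_11406 rfl cN_11406
theorem uN_13581 : Upto T.chkName 13581 := upto_add uN_12488 rfl cN_12488
theorem uN_14715 : Upto T.chkName 14715 := upto_add uN_13581 rfl cN_13581
theorem uN_15787 : Upto T.chkName 15787 := upto_add uN_14715 rfl cN_14715
theorem uN_16922 : Upto T.chkName 16922 := upto_add uN_15787 rfl cN_15787
theorem uN_18049 : Upto T.chkName 18049 := upto_add uN_16922 rfl cN_16922
theorem uN_19195 : Upto T.chkName 19195 := upto_add uN_18049 rfl cN_18049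
theorem uN_20307 : Upto T.chkName 20307 := upto_add uN_19195 rfl cN_19195
theorem uN_21318 : Upto T.chkName 21318 := upto_add uN_20307 rfl cN_20307
theorem uN_22152 : Upto T.chkName 22152 := upto_add uN_21318 rfl cN_21318
theorem uN_22935 : Upto T.chkName 22935 := upto_add uN_22152 rfl cN_22152
theorem uN_23639 : Upto T.chkName 23639 := upto_add uN_22935 rfl cN_22935
theorem uN_23954 : Upto T.chkName 23954 := upto_add uN_23639 rfl cN_23639
theorem uF_476 : Upto T.chkFinName 476 := upto_add (upto_zero T.chkFinName) rfl cF_0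
theorem uF_952 : Upto T.chkFinName 952 := upto_add uF_476 rfl cF_476
theorem uF_1428 : Upto T.chkFinName 1428 := upto_add uF_952 rfl cF_952
theorem uF_1904 : Upto T.chkFinName 1904 := upto_add uF_1428 rfl cF_1428
theorem uF_2106 : Upto T.chkFinName 2106 := upto_add uF_1904 rfl cF_1904

/-- The certificate is valid. -/
theorem certC : CertC T where
  hNN := by decide +kernel
  hN := by decide +kernel
  hinvK := by decide +kernel
  hinvli := by decide +kernel
  hsubK := by decide +kernel
  hrelK := by decide +kernel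
  hrx := by decide +kernel
  hchk := uN_23954
  hfin := uF_2106

end Cfsg.Agent.Lib.Helper28.G23Mult.L0
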